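import Cfsg.Agent.QP.LinSL
import Cfsg.Agent.Geom.SpGen
import Cfsg.Agent.Geom.UMat
import Cfsg.Agent.Geom.StdQuad

/-! # Symplectic and unitary transvection groups, Siegel transformation groups -/

set_option autoImplicit false

namespace CF.QP

open Cfsg CF.Fisch Module Matrix QuadraticMap

section skew
variable {F V : Type*} [Field F] [AddCommGroup V] [Module F V] {σ : F →+* F}
  {B : V →ₛₗ[σ] V →ₗ[F] F} {p r : V}

/-- A non-degenerate trace-valued skew-Hermitian form. -/
structure SkewH (B : V →ₛₗ[σ] V →ₗ[F] F) : Prop where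
  nd : ∀ p, B p = 0 → p = 0
  skew : ∀ x y, B y x = -σ (B x y)
  tr : ∀ v, ∃ t, B v v = σ t - t

/-- The transvection elements of isotropic points. -/
def tF (B : V →ₛₗ[σ] V →ₗ[F] F) : Set (End F V) := {a | ∃ p, p ≠ 0 ∧ B p p = 0 ∧ a = tv (B p) p}

namespace SkewH
variable (H : SkewH B)
include H

theorem refl (h : B p r = 0) : B r p = 0 := by rw [H.skew, h, map_zero, neg_zero]

theorem tv_ne (hp : p ≠ 0) : tv (B p) p ≠ 0 := tv_ne_zero (fun e => hp (H.nd p e)) hp

theorem aba_ne (hp : p ≠ 0) (h : B p r ≠ 0) : tv (B p) p * tv (B r) r * tv (B p) p ≠ 0 := by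
  rw [tv_aba]
  exact smul_ne_zero (mul_ne_zero h fun e => h (H.refl e)) (H.tv_ne hp)

theorem comm : ∀ a ∈ tF B, ∀ b ∈ tF B, a * b * a = 0 → a * b = b * a := by
  rintro _ ⟨p, hp, -, rfl⟩ _ ⟨r, -, -, rfl⟩ h
  have e : B p r = 0 := not_not.1 fun e => H.aba_ne hp e h
  rw [tv_mul, tv_mul, e, H.refl e, zero_smul, zero_smul]

theorem conn : ∀ a ∈ tF B, ∀ b ∈ tF B, ∃ c ∈ tF B, a * c * a ≠ 0 ∧ b * c * b ≠ 0 := by
  rintro _ ⟨p, hp, h, rfl⟩ _ ⟨r, hr, h', rfl⟩
  suffices ∃ s, B s s = 0 ∧ B p s ≠ 0 ∧ B r s ≠ 0 by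
    obtain ⟨s, h1, h2, h3⟩ := this
    exact ⟨_, ⟨s, fun e => h2 (by rw [e, map_zero]), h1, rfl⟩, H.aba_ne hp h2, H.aba_ne hr h3⟩
  by_cases e : B p r = 0
  · obtain ⟨v, h1, h2⟩ := exists_two_vec (fun e => hp (H.nd p e)) (fun e => hr (H.nd r e))
    obtain ⟨t, ht⟩ := H.tr v
    have h3 : B v p ≠ 0 := fun e => h1 (H.refl e)
    have h4 : σ (B v p) ≠ 0 := (_root_.map_ne_zero σ).2 h3
    refine ⟨v + (t / B v p) • p, ?_, by simpa [h] using h1, by simpa [H.refl e] using h2⟩
    simp [h, ht, H.skew v p]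
    field_simp
    ring
  · have h4 : σ (B p r) ≠ 0 := (_root_.map_ne_zero σ).2 e
    refine ⟨p + (B p r)⁻¹ • r, ?_, by simp [h, e], by simpa [h'] using fun e' => e (H.refl e')⟩
    simp [h, h', H.skew p r, e, h4]

variable {L : Type*} [Field L] [Algebra L F] [Module L V] [IsScalarTower L F V]
  {Γ : Type*} [Group Γ] {ι : Γ →* End F V}

theorem linSys (hL : ∀ x y, ∃ l : L, algebraMap L F l = B x y * B y x)
    (hι : Function.Injective ι) (iso : ∀ g x y, B (ι g x) (ι g y) = B x y)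
    (ex : ∀ p, B p p = 0 → ∀ c : L, ∃ g, ι g = 1 + c • tv (B p) p) : LinSys L ι (tF B) := by
  refine ⟨hι, ?_, ?_, ?_⟩
  · rintro _ ⟨p, hp, h, rfl⟩
    exact ⟨by rw [tv_mul, h, zero_smul], H.tv_ne hp, ex p h⟩
  · rintro _ ⟨p, hp, h, rfl⟩ g
    refine ⟨ι g p, hom_ne_zero ι g hp, by rw [iso, h], ?_⟩
    rw [tv_conj]
    congr 1
    ext v
    rw [LinearMap.comp_apply, ← iso g, hom_apply_inv]
  · rintro _ ⟨p, hp, h, rfl⟩ _ ⟨r, hr, h', rfl⟩
    by_cases e : B p r = 0
    · exact .inl (by rw [tv_mul, tv_mul, e, H.refl e, zero_smul, zero_smul])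
    · obtain ⟨l, hl⟩ := hL p r
      refine .inr (.inl ⟨l, fun e' => mul_ne_zero e (fun e' => e (H.refl e')) ?_, ?_, ?_⟩)
      · rw [← hl, e', map_zero]
      · rw [tv_aba, ← hl, algebraMap_smul]
      · rw [tv_aba, mul_comm, ← hl, algebraMap_smul]

theorem exists_eq_tv (hL : ∀ x, σ x = x → ∃ l : L, algebraMap L F l = x) (hp : p ≠ 0)
    (h : B p p = 0) {u : End F V} (iso : ∀ x y, B (u x) (u y) = B x y)
    (h1 : ∀ v, ∃ c : F, u v = v + c • p) (h2 : ∀ v, B p v = 0 → u v = v) :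
    ∃ c : L, u = 1 + c • tv (B p) p := by
  obtain ⟨w, hw⟩ := LinearMap.surjective_of_ne_zero (fun e => hp (H.nd p e)) 1
  obtain ⟨c, hc⟩ := h1 w
  have e := iso w w
  simp [hc, h, hw, H.skew p w] at e
  obtain ⟨l, rfl⟩ := hL c (by linear_combination e)
  refine ⟨l, LinearMap.ext fun v => ?_⟩
  have := h2 (v - B p v • w) (by simp [hw])
  rw [map_sub, map_smul, hc, sub_eq_iff_eq_add] at this
  rw [this, ← algebraMap_smul F l]
  simp only [LinearMap.add_apply, End.one_apply, LinearMap.smul_apply, tv_apply]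
  module

end SkewH
end skew

section siegel
variable {F V : Type*} [Field F] [AddCommGroup V] [Module F V] {Q : QuadraticForm F V}
  {p r x y v : V}

/-- The nilpotent part of a Siegel transformation. -/
def sg (Q : QuadraticForm F V) (p r : V) : End F V :=
  tv (polarBilin Q p) r - tv (polarBilin Q r) p

theorem sg_apply (p r v : V) : sg Q p r v = polar Q p v • r - polar Q r v • p := rfl

/-- A totally singular pair. -/
structure TS (Q : QuadraticForm F V) (p r : V) : Prop where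
  ql : Q p = 0
  qr : Q r = 0
  lr : polar Q p r = 0

/-- The Siegel elements. -/
def tO (Q : QuadraticForm F V) : Set (End F V) := {a | a ≠ 0 ∧ ∃ p r, TS Q p r ∧ a = sg Q p r}

theorem TS.pp (h : TS Q p r) : polar Q p p = 0 := by rw [polar_self, h.ql, smul_zero]
theorem TS.rr (h : TS Q p r) : polar Q r r = 0 := by rw [polar_self, h.qr, smul_zero]
theorem TS.rl (h : TS Q p r) : polar Q r p = 0 := by rw [polar_comm, h.lr]

theorem q_add (x y : V) : Q (x + y) = Q x + Q y + polar Q x y := QuadraticMap.map_add Q x y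

theorem TS.comb (h : TS Q p r) (s t : F) : Q (s • p + t • r) = 0 := by
  simp [q_add, QuadraticMap.map_smul, h.ql, h.qr, h.lr]

theorem TS.sq (h : TS Q p r) : sg Q p r * sg Q p r = 0 := LinearMap.ext fun v => by
  simp [sg_apply, h.pp, h.rr, h.lr, h.rl]

theorem TS.iso (h : TS Q p r) (c : F) (v : V) : Q (v + c • sg Q p r v) = Q v := by
  have := h.comb (-(c * polar Q r v)) (c * polar Q p v)
  rw [q_add, show c • sg Q p r v = -(c * polar Q r v) • p + (c * polar Q p v) • r by
    rw [sg_apply]; module, this]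
  simp [polar_comm Q v]
  ring

theorem sg_aba (p r x y : V) : sg Q p r * sg Q x y * sg Q p r =
    (polar Q p y * polar Q r x - polar Q p x * polar Q r y) • sg Q p r := LinearMap.ext fun v => by
  simp only [End.mul_apply, sg_apply, polar_sub_right, polar_smul_right, LinearMap.smul_apply,
    smul_eq_mul, polar_comm Q x p, polar_comm Q y p, polar_comm Q x r, polar_comm Q y r]
  module

theorem sg_comm {u₁ u₂ w₁ w₂ : F} (h1 : polar Q p x = u₁ * w₁) (h2 : polar Q p y = u₁ * w₂)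
    (h3 : polar Q r x = u₂ * w₁) (h4 : polar Q r y = u₂ * w₂) :
    sg Q p r * sg Q x y - sg Q x y * sg Q p r =
      sg Q (w₂ • x + (-w₁) • y) ((-u₂) • p + u₁ • r) := LinearMap.ext fun v => by
  simp only [End.mul_apply, LinearMap.sub_apply, sg_apply, polar_sub_right, polar_smul_right,
    polar_add_left, polar_smul_left, smul_eq_mul, polar_comm Q x p, polar_comm Q y p,
    polar_comm Q x r, polar_comm Q y r, h1, h2, h3, h4]
  module

theorem exists_rank_one {α β γ δ : F} (h : β * γ - α * δ = 0) :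
    ∃ u₁ u₂ w₁ w₂, α = u₁ * w₁ ∧ β = u₁ * w₂ ∧ γ = u₂ * w₁ ∧ δ = u₂ * w₂ := by
  by_cases ha : α = 0
  · by_cases hb : β = 0
    · exact ⟨0, 1, γ, δ, by simp [ha, hb]⟩
    · exact ⟨1, δ / β, α, β, by simp, by simp, by field_simp; linear_combination h, by simp [hb]⟩
  · exact ⟨1, γ / α, α, β, by simp, by simp, by simp [ha], by field_simp; linear_combination -h⟩

theorem linSys_tO {Γ : Type*} [Group Γ] {ι : Γ →* End F V} (hι : Function.Injective ι)
    (iso : ∀ g v, Q (ι g v) = Q v)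
    (ex : ∀ p r, TS Q p r → ∀ c : F, ∃ g, ι g = 1 + c • sg Q p r) : LinSys F ι (tO Q) := by
  have iso' : ∀ g x y, polar Q (ι g x) (ι g y) = polar Q x y := fun g x y => by
    simp only [polar, ← map_add, iso]
  refine ⟨hι, ?_, ?_, ?_⟩
  · rintro _ ⟨h0, p, r, h, rfl⟩
    exact ⟨h.sq, h0, ex p r h⟩
  · rintro _ ⟨h0, p, r, h, rfl⟩ g
    refine ⟨fun e => h0 (LinearMap.ext fun v => ?_), ι g p, ι g r,
      ⟨by rw [iso, h.ql], by rw [iso, h.qr], by rw [iso', h.lr]⟩, LinearMap.ext fun v => ?_⟩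
    · have := congrArg (ι g⁻¹) (LinearMap.congr_fun e (ι g v))
      simpa only [End.mul_apply, hom_inv_apply, LinearMap.zero_apply, map_zero] using this
    · simp only [End.mul_apply, sg_apply, map_sub, map_smul]
      rw [← iso' g p, ← iso' g r, hom_apply_inv]
  · rintro _ ⟨h0, p, r, h, rfl⟩ _ ⟨h0', x, y, h', rfl⟩
    have e := sg_aba (Q := Q) x y p r
    rw [polar_comm Q x, polar_comm Q x, polar_comm Q y, polar_comm Q y, mul_comm (polar Q r x)] at e
    by_cases hd : polar Q p y * polar Q r x - polar Q p x * polar Q r y = 0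
    · by_cases hc : sg Q p r * sg Q x y - sg Q x y * sg Q p r = 0
      · exact .inl (sub_eq_zero.1 hc)
      · refine .inr (.inr ⟨by rw [sg_aba, hd, zero_smul], by rw [e, hd, zero_smul], hc, ?_⟩)
        obtain ⟨u₁, u₂, w₁, w₂, h1, h2, h3, h4⟩ := exists_rank_one hd
        refine ⟨_, _, ⟨h'.comb _ _, h.comb _ _, ?_⟩, sg_comm h1 h2 h3 h4⟩
        simp only [polar_add_left, polar_add_right, polar_smul_left, polar_smul_right, smul_eq_mul,
          polar_comm Q x p, polar_comm Q y p, polar_comm Q x r, polar_comm Q y r, h1, h2, h3, h4]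
        ring
    · exact .inr (.inl ⟨_, hd, sg_aba .., e⟩)

variable [FiniteDimensional F V] (hQ : (polarBilin Q).Nondegenerate)
include hQ

theorem mem_span_of_perp {κ : Type*} [Finite κ] {z : κ → V}
    (h : ∀ v, (∀ i, polar Q (z i) v = 0) → polar Q x v = 0) : x ∈ Submodule.span F (Set.range z) := by
  have h1 := mem_span_of_iInf_ker_le_ker (L := fun i => polarBilin Q (z i)) (K := polarBilin Q x)
    fun v hv => h v fun i => Submodule.mem_iInf _ |>.1 hv i
  have h2 : Set.range (fun i => polarBilin Q (z i)) = polarBilin Q '' Set.range z := by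
    rw [← Set.range_comp]; rfl
  rw [h2, Submodule.span_image] at h1
  obtain ⟨y, hy, e⟩ := h1
  rwa [← (injective_iff_map_eq_zero _).2 (fun a ha => hQ.1 a (LinearMap.congr_fun ha)) e]

theorem exists_perp_ne {z : V} (h : z ∉ Submodule.span F {x}) :
    ∃ v, polar Q x v = 0 ∧ polar Q z v ≠ 0 := by
  by_contra! hc
  exact h (by simpa using mem_span_of_perp hQ (z := fun _ : Unit => x) fun v hv => hc v (hv ()))

theorem exists_sing (h5 : 5 ≤ finrank F V) {z₁ z₂ : V} (h1 : TS Q x z₁) (h2 : TS Q x z₂)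
    (n1 : z₁ ∉ Submodule.span F {x}) (n2 : z₂ ∉ Submodule.span F {x}) :
    ∃ y, TS Q x y ∧ polar Q z₁ y ≠ 0 ∧ polar Q z₂ y ≠ 0 := by
  by_cases e : polar Q z₁ z₂ = 0
  · obtain ⟨v, k0, k1, k2⟩ := exists_two (U := (LinearMap.ker (polarBilin Q x)).toAddSubgroup)
      (f := (polarBilin Q z₁).toAddMonoidHom) (g := (polarBilin Q z₂).toAddMonoidHom)
      (exists_perp_ne hQ n1) (exists_perp_ne hQ n2)
    change polar Q x v = 0 at k0
    change polar Q z₁ v ≠ 0 at k1
    change polar Q z₂ v ≠ 0 at k2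
    refine ⟨v + (-(Q v / polar Q z₁ v)) • z₁, ⟨h1.ql, ?_, by simp [k0, h1.lr]⟩,
      by simpa [h1.rr] using k1, by simpa [polar_comm Q z₂ z₁, e] using k2⟩
    simp [q_add, QuadraticMap.map_smul, h1.qr, polar_comm Q v, k1]
  · obtain ⟨w, k0, k1, k2, k3⟩ : ∃ w, polar Q x w = 0 ∧ polar Q z₁ w = 0 ∧ polar Q z₂ w = 0 ∧
        Q w ≠ 0 := by
      by_contra! hc
      let φ : V →ₗ[F] F × F × F :=
        (polarBilin Q x).prod ((polarBilin Q z₁).prod (polarBilin Q z₂))
      have hφ : ∀ v, v ∈ LinearMap.ker φ ↔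
          polar Q x v = 0 ∧ polar Q z₁ v = 0 ∧ polar Q z₂ v = 0 := fun v => by
        simp [φ]
      have hq : ∀ v ∈ LinearMap.ker φ, Q v = 0 := fun v hv =>
        hc v ((hφ v).1 hv).1 ((hφ v).1 hv).2.1 ((hφ v).1 hv).2.2
      have hle : LinearMap.ker φ ≤ Submodule.span F {x} := fun u hu => by
        have := mem_span_of_perp hQ (x := u) (z := ![x, z₁, z₂]) fun v hv => by
          have hv' := (hφ v).2 ⟨hv 0, hv 1, hv 2⟩
          rw [polar, hq _ (add_mem hu hv'), hq _ hu, hq _ hv', sub_zero, sub_zero]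
        obtain ⟨c, rfl⟩ := (Submodule.mem_span_range_iff_exists_fun F).1 this
        obtain ⟨-, a1, a2⟩ := (hφ _).1 hu
        simp [Fin.sum_univ_three, h1.rl, h2.rl, h1.rr, h2.rr, e, polar_comm Q z₂ z₁] at a1 a2
        simp [Fin.sum_univ_three, a1, a2, Submodule.smul_mem, Submodule.mem_span_singleton_self]
      have a1 := Submodule.finrank_mono hle
      have a2 := finrank_span_le_card (R := F) ({x} : Set V)
      have a3 := φ.finrank_range_add_finrank_ker
      have a4 := (LinearMap.range φ).finrank_le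
      simp at a2 a4
      omega
    refine ⟨w + z₁ + (-(Q w / polar Q z₁ z₂)) • z₂, ⟨h1.ql, ?_, by simp [k0, h1.lr, h2.lr]⟩,
      by simp [h1.rr, k1, k3, e], by simpa [h2.rr, k2, polar_comm Q z₂ z₁] using e⟩
    simp [q_add, QuadraticMap.map_smul, h1.qr, h2.qr, polar_comm Q w, k1, k2, e]

omit [FiniteDimensional F V] hQ in
theorem opp_step (h : TS Q p r) (h0 : sg Q p r ≠ 0) (hx : Q x = 0) (hp : polar Q p x ≠ 0) :
    TS Q x (sg Q p r x) ∧ sg Q p r x ∉ Submodule.span F {x} := by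
  refine ⟨⟨hx, ?_, ?_⟩, fun hm => ?_⟩
  · rw [← h.comb (-polar Q r x) (polar Q p x), sg_apply]
    congr 1
    module
  · simp [sg_apply, polar_comm Q x p, polar_comm Q x r, mul_comm]
  · obtain ⟨c, hc⟩ := Submodule.mem_span_singleton.1 hm
    have e := congrArg (polar Q p) hc
    simp [sg_apply, h.pp, h.lr, hp] at e
    rw [e, zero_smul, sg_apply, eq_comm, sub_eq_zero] at hc
    refine h0 (LinearMap.ext fun v => smul_right_injective _ hp ?_)
    have e2 := congrArg (polar Q v) hc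
    simp only [polar_smul_right, smul_eq_mul, polar_comm Q v p, polar_comm Q v r] at e2
    simp only [sg_apply, LinearMap.zero_apply, smul_zero, smul_sub]
    rw [smul_comm, hc, smul_smul, smul_smul, e2, mul_comm, sub_self]

theorem tO_conn (h5 : 5 ≤ finrank F V) :
    ∀ a ∈ tO Q, ∀ b ∈ tO Q, ∃ c ∈ tO Q, a * c * a ≠ 0 ∧ b * c * b ≠ 0 := by
  rintro _ ⟨h0, p, r, h, rfl⟩ _ ⟨h0', p', r', h', rfl⟩
  have n : ∀ {p r : V}, sg Q p r ≠ 0 → p ∉ Submodule.span F {0} := fun {p r} h0 e => h0 (by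
    rw [Submodule.span_zero_singleton, Submodule.mem_bot] at e
    ext v; simp [e, sg_apply])
  obtain ⟨x, hx, k1, k2⟩ := exists_sing hQ h5 (x := 0) ⟨by simp, h.ql, by simp⟩
    ⟨by simp, h'.ql, by simp⟩ (n h0) (n h0')
  obtain ⟨a1, a2⟩ := opp_step h h0 hx.qr k1
  obtain ⟨b1, b2⟩ := opp_step h' h0' hx.qr k2
  obtain ⟨y, hy, k3, k4⟩ := exists_sing hQ h5 a1 b1 a2 b2
  have key : ∀ {p r : V}, sg Q p r ≠ 0 → polar Q (sg Q p r x) y ≠ 0 →
      sg Q p r * sg Q x y * sg Q p r ≠ 0 := fun {p r} h0 hk => by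
    rw [sg_aba]
    refine smul_ne_zero (fun e => hk ?_) h0
    simp only [sg_apply, polar_sub_left, polar_smul_left, smul_eq_mul]
    linear_combination -e
  exact ⟨_, ⟨fun e => key h0 k3 (by rw [e, mul_zero, zero_mul]), x, y, hy, rfl⟩, key h0 k3,
    key h0' k4⟩

theorem sg_ne_zero_iff : sg Q p r ≠ 0 ↔ LinearIndependent F ![p, r] := by
  rw [LinearIndependent.pair_iff]
  refine ⟨fun h s t e => ?_, fun h e => ?_⟩
  · by_contra hc
    refine h (LinearMap.ext fun v => ?_)
    have e2 := congrArg (polar Q v) e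
    simp only [polar_add_right, polar_smul_right, smul_eq_mul, polar_comm Q v p, polar_comm Q v r,
      polar_zero_right] at e2
    rw [sg_apply, LinearMap.zero_apply]
    rcases not_and_or.1 hc with hs | hs
    · refine (smul_eq_zero.1 ?_).resolve_left hs
      linear_combination (norm := module) e2 • r - polar Q r v • e
    · refine (smul_eq_zero.1 ?_).resolve_left hs
      linear_combination (norm := module) polar Q p v • e - e2 • p
  · have : p = 0 := hQ.1 p fun v => (h (-polar Q r v) (polar Q p v) (by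
      rw [neg_smul, neg_add_eq_sub]
      exact LinearMap.congr_fun e v)).2
    exact one_ne_zero (h 1 0 (by simp [this])).1

theorem exists_eq_sg (h : TS Q p r) (h0 : sg Q p r ≠ 0) {u : End F V} (iso : ∀ v, Q (u v) = Q v)
    (h2 : ∀ v, polar Q p v = 0 → polar Q r v = 0 → u v = v) : ∃ c : F, u = 1 + c • sg Q p r := by
  have li := LinearIndependent.pair_iff.1 ((sg_ne_zero_iff hQ).1 h0)
  have iso' : ∀ x y, polar Q (u x) (u y) = polar Q x y := fun x y => by
    simp only [polar, ← map_add, iso]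
  have key : ∀ w, ∃ s t : F, u w = w + (s • p + t • r) := fun w => by
    have := mem_span_of_perp hQ (x := u w - w) (z := ![p, r]) fun v hv => by
      rw [polar_sub_left, ← iso' w, h2 v (hv 0) (hv 1), sub_self]
    obtain ⟨c, hc⟩ := (Submodule.mem_span_range_iff_exists_fun F).1 this
    exact ⟨c 0, c 1, by rw [← sub_eq_iff_eq_add', ← hc]; simp⟩
  obtain ⟨x, x1, x2⟩ := exists_perp_ne hQ (x := r) (z := p) fun hm => by
    obtain ⟨c, hc⟩ := Submodule.mem_span_singleton.1 hm
    exact one_ne_zero (li 1 (-c) (by simp [hc])).1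
  obtain ⟨y, y1, y2⟩ := exists_perp_ne hQ (x := p) (z := r) fun hm => by
    obtain ⟨c, hc⟩ := Submodule.mem_span_singleton.1 hm
    exact one_ne_zero (li (-c) 1 (by simp [hc])).2
  obtain ⟨s, t, hx⟩ := key x
  obtain ⟨s', t', hy⟩ := key y
  have e1 := iso x
  have e2 := iso y
  have e3 := iso' x y
  rw [hx, q_add, h.comb] at e1
  rw [hy, q_add, h.comb] at e2
  simp [polar_comm Q x, x1, x2] at e1
  simp [polar_comm Q y, y1, y2] at e2
  simp [hx, hy, e1, e2, polar_comm Q x p, h.rl] at e3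
  refine ⟨t / polar Q p x, LinearMap.ext fun v => ?_⟩
  have := h2 (v - (polar Q p v / polar Q p x) • x - (polar Q r v / polar Q r y) • y)
    (by simp [x2, y1]) (by simp [x1, y2])
  rw [map_sub, map_sub, map_smul, map_smul, hx, hy, sub_eq_iff_eq_add, sub_eq_iff_eq_add] at this
  have e4 : s' = -(t * polar Q r y / polar Q p x) := by
    field_simp
    linear_combination e3
  rw [this, e1, e2, e4]
  simp only [LinearMap.add_apply, End.one_apply, LinearMap.smul_apply, sg_apply]
  match_scalars <;> field_simp <;> ring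

end siegel

end CF.QP
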