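import Cfsg.Agent.QP.Lin
import Cfsg.Agent.Classical.Linear

/-! # Root involutions from long root elements; transvection groups of `SL` -/

set_option autoImplicit false

namespace CF.QP

open Cfsg CF.Fisch Module Matrix
open scoped commutatorElement MatrixGroups

section invol
variable {L : Type*} [Field L] {E : Type*} [Ring E] [Algebra L E] {Γ : Type*} [Group Γ]
  {ι : Γ →* E} {a b : E} {g h : Γ} {T : Set E}

theorem odd_eU_eL [Finite L] [CharP L 2] {s t : L} (hs : s ≠ 0) (ht : t ≠ 0) :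
    Odd (orderOf (eU s * eL t)) := by
  have h2 : (2 : L) = 0 := CharTwo.two_eq_zero
  rw [← Nat.not_even_iff_odd]
  rintro ⟨m, hm⟩
  have hp := orderOf_pos (eU s * eL t)
  have y1 : (eU s * eL t) ^ m ≠ 1 := pow_ne_one_of_lt_orderOf (by omega) (by omega)
  have y2 : (eU s * eL t) ^ m = ((eU s * eL t) ^ m)⁻¹ := by
    rw [eq_inv_iff_mul_eq_one, ← pow_add, ← hm, pow_orderOf_eq_one]
  have y3 : (eU s * eL t) ^ m * (eU s * eL t) = eU s * eL t * (eU s * eL t) ^ m :=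
    ((Commute.refl _).pow_left m).eq
  generalize (eU s * eL t) ^ m = y at y1 y2 y3
  have e1 := congrArg (fun z : SL(2, L) => z 0 0) y2
  have e2 := congrArg (fun z : SL(2, L) => z 0 1) y3
  have e3 := congrArg (fun z : SL(2, L) => z 1 0) y3
  have e4 := s2_det y
  simp only [s2s] at e1 e2 e3
  have b0 : y 0 1 = 0 := (mul_eq_zero.1 (show s * t * y 0 1 = 0 by
    linear_combination -e2 + s * e1)).resolve_left (mul_ne_zero hs ht)
  have c0 : y 1 0 = 0 := (mul_eq_zero.1 (show s * t * y 1 0 = 0 by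
    linear_combination e3 + t * e1)).resolve_left (mul_ne_zero hs ht)
  have a1 : y 0 0 = 1 := sub_eq_zero.1 (pow_eq_zero_iff two_ne_zero |>.1 (show (y 0 0 - 1) ^ 2 = 0 by
    linear_combination e4 + y 0 0 * e1 + y 0 1 * c0 + (1 - y 0 0) * h2))
  exact y1 (s2_ext (by simpa only [s2s] using a1) (by simpa only [s2s] using b0)
    (by simpa only [s2s] using c0) (by simpa only [s2s, ← e1] using a1))

theorem conj_of_odd (hg : g * g = 1) (hh : h * h = 1) (o : Odd (orderOf (g * h))) :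
    ∃ x, h = x * g * x⁻¹ := by
  obtain ⟨m, hm⟩ := o
  have e1 : g * (g * h)⁻¹ = g * h * g := by
    rw [_root_.mul_inv_rev, inv_eq_of_mul_eq_one_right hg, inv_eq_of_mul_eq_one_right hh, mul_assoc]
  have e2 : g * ((g * h) ^ m)⁻¹ = (g * h) ^ m * g := by
    rw [← inv_pow]; exact SemiconjBy.pow_right e1 m
  have e3 : (g * h) ^ m * (g * h) ^ m = (g * h)⁻¹ := by
    rw [eq_inv_iff_mul_eq_one, ← pow_add, ← pow_succ, ← two_mul, ← hm, pow_orderOf_eq_one]
  refine ⟨(g * h) ^ m, ?_⟩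
  rw [mul_assoc, e2, ← mul_assoc, e3, _root_.mul_inv_rev, inv_mul_cancel_right,
    inv_eq_of_mul_eq_one_right hh]

namespace LinSys
variable [CharP L 2] (S : LinSys L ι T)
include S

theorem inv_sq (ha : a ∈ T) (hg : ι g = 1 + a) : g * g = 1 := S.inj (by
  have : a + a = 0 := by rw [← two_smul L, CharTwo.two_eq_zero, zero_smul]
  rw [map_mul, hg, map_one, mul_add, add_mul, add_mul, (S.pt a ha).sq]
  simp [add_assoc, this])

theorem inv_order (ha : a ∈ T) (hg : ι g = 1 + a) : orderOf g = 2 :=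
  orderOf_eq_prime (by rw [sq, S.inv_sq ha hg])
    (((S.pt a ha).ne_one S.inj (c := 1) (by rw [hg, one_smul])).2 one_ne_zero)

theorem inv_cases (ha : a ∈ T) (hb : b ∈ T) (hg : ι g = 1 + a) (hh : ι h = 1 + b) :
    (g * h = h * g ∧ a * b * a = 0) ∨ (∃ l : L, l ≠ 0 ∧ orderOf (g * h) = orderOf (eU 1 * eL l)) ∨
      (orderOf (g * h) = 4 ∧ a * b * a = 0 ∧ ∃ c ∈ T, ι ((g * h) ^ 2) = 1 + c) := by
  have hg' : ι g = 1 + (1 : L) • a := by rw [hg, one_smul]
  have hh' : ι h = 1 + (1 : L) • b := by rw [hh, one_smul]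
  rcases S.pair a ha b hb with e | ⟨l, hl, h1, h2⟩ | ⟨h1, h2, h3⟩
  · exact .inl ⟨ln_cm S.inj (S.pt a ha).sq (S.pt b hb).sq e g (Subgroup.subset_closure ⟨_, hg'⟩) h
      (Subgroup.subset_closure ⟨_, hh'⟩), by rw [e, mul_assoc, (S.pt a ha).sq, mul_zero]⟩
  · obtain ⟨φ, hφ, hU, hL⟩ := (S.pt a ha).exists_hom S.inj (S.pt b hb) hl h1 h2
    refine .inr (.inl ⟨l, hl, ?_⟩)
    rw [← orderOf_injective φ hφ, map_mul, S.inj (hg'.trans (hU 1).symm),
      S.inj (show ι h = ι (φ (eL l)) by rw [hL, mul_inv_cancel₀ hl, hh'])]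
  · have e : ι ((g * h) ^ 2) = 1 + (a * b - b * a) := by
      have := comm_elt (S.pt a ha).sq (S.pt b hb).sq h1 h2 hg' hh'
      rwa [commutatorElement_def, inv_eq_of_mul_eq_one_right (S.inv_sq ha hg),
        inv_eq_of_mul_eq_one_right (S.inv_sq hb hh), mul_assoc (g * h), ← sq, mul_one,
        one_smul] at this
    have o := S.inv_order h3 e
    refine .inr (.inr ⟨orderOf_eq_prime_pow (p := 2) (n := 1) (fun h1 => ?_) ?_, h1, _, h3, e⟩)
    · rw [pow_one] at h1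
      rw [h1, orderOf_one] at o
      omega
    · rw [show 2 ^ (1 + 1) = 2 * 2 from rfl, pow_mul, ← orderOf_dvd_iff_pow_eq_one, o]

theorem inv_class [Finite L] (gen : Subgroup.closure {g | ∃ a ∈ T, ι g = 1 + a} = ⊤)
    (hne : T.Nonempty) (hc : ∀ a ∈ T, ∀ b ∈ T, ∃ c ∈ T, a * c * a ≠ 0 ∧ b * c * b ≠ 0) :
    IsRootInvolutionClass {g | ∃ a ∈ T, ι g = 1 + a} := by
  have key : ∀ a ∈ T, ∀ b ∈ T, ∀ g h, ι g = 1 + a → ι h = 1 + b → a * b * a ≠ 0 →
      ∃ x, h = x * g * x⁻¹ := fun a ha b hb g h hg hh h0 => by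
    rcases S.inv_cases ha hb hg hh with e | ⟨l, hl, e⟩ | e
    · exact absurd e.2 h0
    · exact conj_of_odd (S.inv_sq ha hg) (S.inv_sq hb hh) (e ▸ odd_eU_eL one_ne_zero hl)
    · exact absurd e.2.1 h0
  refine ⟨⟨fun g ⟨a, ha, hg⟩ => S.inv_order ha hg, gen, fun d ⟨a, ha, hd⟩ g => ⟨_, S.conj a ha g, ?_⟩,
    fun g ⟨a, ha, hg⟩ h ⟨b, hb, hh⟩ => ?_⟩, ?_, fun g ⟨a, ha, hg⟩ h ⟨b, hb, hh⟩ => ?_⟩
  · rw [map_mul, map_mul, hd, mul_add, add_mul, mul_one, ← map_mul, mul_inv_cancel, map_one]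
  · rcases S.inv_cases ha hb hg hh with e | ⟨l, hl, e⟩ | e
    · exact .inl e.1
    · exact .inr (.inl (e ▸ odd_eU_eL one_ne_zero hl))
    · exact .inr (.inr ⟨e.1, e.2.2⟩)
  · obtain ⟨a, ha⟩ := hne
    obtain ⟨g, hg⟩ := (S.pt a ha).ex 1
    exact ⟨g, a, ha, by rw [hg, one_smul]⟩
  · obtain ⟨c, hc, h1, h2⟩ := hc a ha b hb
    obtain ⟨z, hz⟩ := (S.pt c hc).ex 1
    rw [one_smul] at hz
    obtain ⟨x, hx⟩ := key a ha c hc g z hg hz h1
    obtain ⟨y, hy⟩ := key b hb c hc h z hh hz h2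
    exact ⟨y⁻¹ * x, by rw [_root_.mul_inv_rev, inv_inv, mul_assoc y⁻¹, ← mul_assoc _ x⁻¹,
      mul_assoc y⁻¹, ← hx, hy]; group⟩

theorem inv_three (h01 : ∀ l : L, l ≠ 0 → l = 1) (ha : a ∈ T) (hb : b ∈ T) (hg : ι g = 1 + a)
    (hh : ι h = 1 + b) (o : Odd (orderOf (g * h))) : orderOf (g * h) = 1 ∨ orderOf (g * h) = 3 := by
  rcases S.inv_cases ha hb hg hh with e | ⟨l, hl, e⟩ | e
  · have : (g * h) ^ 2 = 1 := by
      rw [Commute.mul_pow e.1, sq, sq, S.inv_sq ha hg, S.inv_sq hb hh, mul_one]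
    rcases (Nat.dvd_prime Nat.prime_two).1 (orderOf_dvd_of_pow_eq_one this) with h | h
    · exact .inl h
    · exact absurd (h ▸ o) (by decide)
  · have h2 : (2 : L) = 0 := CharTwo.two_eq_zero
    have : (eU 1 * eL l : SL(2, L)) ^ 3 = 1 := by
      rw [h01 l hl, pow_succ, sq]
      apply s2_ext <;> simp only [s2s]
      · linear_combination 6 * h2
      · linear_combination 4 * h2
      · linear_combination 4 * h2
      · linear_combination 2 * h2
    exact e ▸ (Nat.dvd_prime Nat.prime_three).1 (orderOf_dvd_of_pow_eq_one this)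
  · exact absurd (e.1 ▸ o) (by decide)

end LinSys
end invol

section tv
variable {F V : Type*} [Field F] [AddCommGroup V] [Module F V] {f g : Dual F V} {p r : V}

/-- The rank one map `v ↦ f(v) p`. -/
def tv (f : Dual F V) (p : V) : End F V := f.smulRight p

theorem tv_apply (f : Dual F V) (p v : V) : tv f p v = f v • p := rfl

theorem tv_mul (f g : Dual F V) (p r : V) : tv f p * tv g r = f r • tv g p := by
  ext v; simp [tv_apply, smul_smul, mul_comm]

theorem tv_smul (c : F) (f : Dual F V) (p : V) : tv f (c • p) = c • tv f p := by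
  ext v; simp [tv_apply, smul_smul, mul_comm]

theorem smul_tv (c : F) (f : Dual F V) (p : V) : tv (c • f) p = c • tv f p := by
  ext v; simp [tv_apply, smul_smul]

theorem tv_aba (f g : Dual F V) (p r : V) : tv f p * tv g r * tv f p = (f r * g p) • tv f p := by
  rw [tv_mul, smul_mul_assoc, tv_mul, smul_smul]

theorem tv_conj (u w : End F V) (f : Dual F V) (p : V) : u * tv f p * w = tv (f ∘ₗ w) (u p) := by
  ext v; simp [tv_apply]

theorem tv_ne_zero (hf : f ≠ 0) (hp : p ≠ 0) : tv f p ≠ 0 := fun e => hf (LinearMap.ext fun v =>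
  (smul_eq_zero.1 (LinearMap.congr_fun e v)).resolve_right hp)

theorem exists_two {W : Type*} [AddCommGroup W] {U : AddSubgroup W} {f g : W →+ F}
    (hf : ∃ v ∈ U, f v ≠ 0) (hg : ∃ v ∈ U, g v ≠ 0) : ∃ v ∈ U, f v ≠ 0 ∧ g v ≠ 0 := by
  obtain ⟨v, hv, h1⟩ := hf
  obtain ⟨w, hw, h2⟩ := hg
  by_cases e1 : g v = 0
  · by_cases e2 : f w = 0
    · exact ⟨v + w, add_mem hv hw, by rwa [map_add, e2, add_zero], by rwa [map_add, e1, zero_add]⟩
    · exact ⟨w, hw, e2, h2⟩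
  · exact ⟨v, hv, h1, e1⟩

theorem exists_two_vec (hf : f ≠ 0) (hg : g ≠ 0) : ∃ v, f v ≠ 0 ∧ g v ≠ 0 := by
  obtain ⟨v, hv⟩ := DFunLike.ne_iff.1 hf
  obtain ⟨w, hw⟩ := DFunLike.ne_iff.1 hg
  obtain ⟨x, -, hx⟩ := exists_two (U := ⊤) (f := f.toAddMonoidHom) (g := g.toAddMonoidHom)
    ⟨v, trivial, hv⟩ ⟨w, trivial, hw⟩
  exact ⟨x, hx⟩

theorem exists_dual_ker {s : V} (hf : f s ≠ 0) (hp : p ≠ 0) (h : f p = 0) :
    ∃ φ : Dual F V, φ s = 0 ∧ φ p ≠ 0 := by
  obtain ⟨ψ, hψ⟩ := not_forall.1 (mt (forall_dual_apply_eq_zero_iff F p).1 hp)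
  exact ⟨ψ - (ψ s / f s) • f, by simp [hf], by simpa [h] using hψ⟩

variable (F V) in
/-- The nilpotent maps of rank one. -/
def tSL : Set (End F V) := {a | ∃ f p, f ≠ 0 ∧ p ≠ 0 ∧ f p = 0 ∧ a = tv f p}

theorem tSL_conn : ∀ a ∈ tSL F V, ∀ b ∈ tSL F V, ∃ c ∈ tSL F V, a * c * a ≠ 0 ∧ b * c * b ≠ 0 := by
  rintro _ ⟨f, p, hf, hp, h, rfl⟩ _ ⟨g, r, hg, hr, h', rfl⟩
  obtain ⟨s, h1, h2⟩ := exists_two_vec hf hg
  obtain ⟨φ, h3, h4, h5⟩ := exists_two (U := (LinearMap.ker (Dual.eval F V s)).toAddSubgroup)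
    (f := (Dual.eval F V p).toAddMonoidHom) (g := (Dual.eval F V r).toAddMonoidHom)
    (exists_dual_ker h1 hp h) (exists_dual_ker h2 hr h')
  refine ⟨_, ⟨φ, s, fun e => h4 (by rw [e]; rfl), fun e => h1 (by rw [e, map_zero]), h3, rfl⟩, ?_, ?_⟩
  · rw [tv_aba]; exact smul_ne_zero (mul_ne_zero h1 h4) (tv_ne_zero hf hp)
  · rw [tv_aba]; exact smul_ne_zero (mul_ne_zero h2 h5) (tv_ne_zero hg hr)

theorem tSL_smul {a : End F V} (ha : a ∈ tSL F V) {c : F} (hc : c ≠ 0) : c • a ∈ tSL F V := by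
  obtain ⟨f, p, hf, hp, h, rfl⟩ := ha
  exact ⟨f, c • p, hf, smul_ne_zero hc hp, by simp [h], (tv_smul c f p).symm⟩

theorem hom_inv_apply {Γ : Type*} [Group Γ] (ι : Γ →* End F V) (g : Γ) (v : V) :
    ι g⁻¹ (ι g v) = v := by
  rw [← End.mul_apply, ← map_mul, inv_mul_cancel, map_one, End.one_apply]

theorem hom_apply_inv {Γ : Type*} [Group Γ] (ι : Γ →* End F V) (g : Γ) (v : V) :
    ι g (ι g⁻¹ v) = v := by
  rw [← End.mul_apply, ← map_mul, mul_inv_cancel, map_one, End.one_apply]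

theorem hom_ne_zero {Γ : Type*} [Group Γ] (ι : Γ →* End F V) (g : Γ) (hp : p ≠ 0) :
    ι g p ≠ 0 := fun e => hp (by rw [← hom_inv_apply ι g p, e, map_zero])

theorem linSys_tSL {Γ : Type*} [Group Γ] {ι : Γ →* End F V} (hι : Function.Injective ι)
    (h : ∀ a ∈ tSL F V, ∃ g, ι g = 1 + a) : LinSys F ι (tSL F V) := by
  refine ⟨hι, fun a ha => ⟨?_, ?_, fun c => ?_⟩, ?_, ?_⟩
  · obtain ⟨f, p, hf, hp, h, rfl⟩ := ha
    rw [tv_mul, h, zero_smul]
  · obtain ⟨f, p, hf, hp, h, rfl⟩ := ha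
    exact tv_ne_zero hf hp
  · by_cases hc : c = 0
    · exact ⟨1, by simp [hc]⟩
    · exact h _ (tSL_smul ha hc)
  · rintro _ ⟨f, p, hf, hp, h, rfl⟩ g
    refine ⟨_, _, fun e => hf (LinearMap.ext fun v => ?_), hom_ne_zero ι g hp, ?_, tv_conj ..⟩
    · simpa [hom_inv_apply] using LinearMap.congr_fun e (ι g v)
    · simpa [hom_inv_apply] using h
  · rintro _ ⟨f, p, hf, hp, h, rfl⟩ _ ⟨g, r, hg, hr, h', rfl⟩
    by_cases e1 : f r = 0
    · by_cases e2 : g p = 0
      · exact .inl (by rw [tv_mul, tv_mul, e1, e2, zero_smul, zero_smul])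
      · refine .inr (.inr ⟨by simp [tv_aba, e1], by simp [tv_aba, e1], ?_⟩)
        rw [tv_mul, tv_mul, e1, zero_smul, zero_sub, ← neg_smul]
        exact tSL_smul ⟨f, r, hf, hr, e1, rfl⟩ (neg_ne_zero.2 e2)
    · by_cases e2 : g p = 0
      · refine .inr (.inr ⟨by simp [tv_aba, e2], by simp [tv_aba, e2], ?_⟩)
        rw [tv_mul, tv_mul, e2, zero_smul, sub_zero]
        exact tSL_smul ⟨g, p, hg, hp, e2, rfl⟩ e1
      · exact .inr (.inl ⟨_, mul_ne_zero e1 e2, tv_aba .., by rw [tv_aba, mul_comm]⟩)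

end tv

section mat
variable {n : Type*} [Fintype n] [DecidableEq n] {F : Type*} [Field F] {Γ : Type*} [Group Γ]

/-- The action on column vectors of a group of matrices. -/
noncomputable def mι (φ : Γ →* Matrix n n F) : Γ →* End F (n → F) :=
  (toLinAlgEquiv' : Matrix n n F ≃ₐ[F] End F (n → F)).toMulEquiv.toMonoidHom.comp φ

theorem mι_apply (φ : Γ →* Matrix n n F) (g : Γ) (v : n → F) : mι φ g v = φ g *ᵥ v := rfl

theorem mι_inj {φ : Γ →* Matrix n n F} (h : Function.Injective φ) : Function.Injective (mι φ) :=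
  (toLinAlgEquiv' : Matrix n n F ≃ₐ[F] End F (n → F)).injective.comp h

variable (n F) in
/-- The natural action of `SL`. -/
noncomputable def slι : SpecialLinearGroup n F →* End F (n → F) :=
  mι SpecialLinearGroup.coeMonoidHom

theorem slι_apply (g : SpecialLinearGroup n F) (v : n → F) : slι n F g v = g.1 *ᵥ v := rfl

theorem slι_inj : Function.Injective (slι n F) := mι_inj Subtype.val_injective

theorem exists_sl {f : Dual F (n → F)} {p : n → F} (h : f p = 0) : ∃ g, slι n F g = 1 + tv f p :=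
  ⟨⟨LinearMap.toMatrix' (LinearMap.transvection f p), by simp [h]⟩, LinearMap.ext fun v =>
    LinearMap.congr_fun (toLin'_toMatrix' (LinearMap.transvection f p)) v⟩

theorem linSys_SL : LinSys F (slι n F) (tSL F (n → F)) :=
  linSys_tSL slι_inj fun _ ⟨_, _, _, _, h, e⟩ => e ▸ exists_sl h

/-- The elementary matrix as a rank one map. -/
noncomputable def el (F : Type*) [Field F] (i j : n) : End F (n → F) :=
  tv (LinearMap.proj j) (Pi.single i 1)

theorem el_mem {i j : n} (h : i ≠ j) : el F i j ∈ tSL F (n → F) :=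
  ⟨_, _, fun e => by simpa using LinearMap.congr_fun e (Pi.single j 1), by simp, by simp [h.symm],
    rfl⟩

theorem coe_eq_transvection {g : SpecialLinearGroup n F} {i j : n} {c : F} :
    (g : Matrix n n F) = transvection i j c ↔ slι n F g = 1 + c • el F i j := by
  have e : toLinAlgEquiv' (transvection i j c) = 1 + c • el F i j := LinearMap.ext fun v => by
    rw [toLinAlgEquiv'_apply, transvection, add_mulVec, one_mulVec, single_mulVec]
    ext k
    by_cases hk : k = i <;> simp [el, tv_apply, hk]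
  rw [← e]
  exact (toLinAlgEquiv' : Matrix n n F ≃ₐ[F] End F (n → F)).injective.eq_iff.symm

theorem closure_SL : Subgroup.closure {g | ∃ a ∈ tSL F (n → F), slι n F g = 1 + a} = ⊤ :=
  CF.Classical.eq_top_of_transvection_mem _ fun i j h c => by
    have e := coe_eq_transvection.1 (show (SpecialLinearGroup.transvection h c).1 = _ from rfl)
    by_cases hc : c = 0
    · rw [slι_inj (e.trans (by simp [hc]) : _ = slι n F 1)]
      exact one_mem _
    · exact Subgroup.subset_closure ⟨_, tSL_smul (el_mem h) hc, e⟩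

theorem gen_SL : ⨆ A ∈ ln F (slι n F) '' tSL F (n → F), A = ⊤ :=
  gen_of_closure closure_SL fun _ ⟨a, ha, e⟩ => .inr ⟨a, ha, 1, by rw [e, one_smul]⟩

end mat

end CF.QP
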